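import Cfsg.Agent.OmegaEightCover.Upper

/-!
The double cover of `W(E₈)'` inside the Clifford algebra of the E₈ lattice gives a stem extension of
`Ω⁺(8, 2)` with kernel a four-group.
-/

set_option autoImplicit false
set_option maxRecDepth 20000

namespace Cfsg.Agent.OmegaEightCover

open Cfsg
open scoped commutatorElement

/-- half the norm form of the E₈ lattice in the basis of simple roots -/
def cForm : QuadraticForm ℚ (Fin 8 → ℚ) :=
  (QuadraticMap.proj 0 0 + QuadraticMap.proj 1 1 + QuadraticMap.proj 2 2 + QuadraticMap.proj 3 3 +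
    QuadraticMap.proj 4 4 + QuadraticMap.proj 5 5 + QuadraticMap.proj 6 6 + QuadraticMap.proj 7 7) -
  (QuadraticMap.proj 0 2 + QuadraticMap.proj 1 3 + QuadraticMap.proj 2 3 + QuadraticMap.proj 3 4 +
    QuadraticMap.proj 4 5 + QuadraticMap.proj 5 6 + QuadraticMap.proj 6 7)

/-- the simple roots -/
def root (a : ℕ) : Fin 8 → ℚ := fun i => if i.1 = a then 1 else 0

theorem cForm_root : ∀ a : Fin 8, cForm (root a) = 1 := by decide +kernel

theorem cForm_polar : ∀ a b : Fin 8, a ≠ b →
    cForm (root a + root b) - cForm (root a) - cForm (root b) = if adjB a b then -1 else 0 := by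
  decide +kernel

abbrev CA := CliffordAlgebra cForm

theorem ca_sq {a : ℕ} (h : a < 8) :
    CliffordAlgebra.ι cForm (root a) * CliffordAlgebra.ι cForm (root a) = 1 := by
  rw [CliffordAlgebra.ι_sq_scalar, cForm_root ⟨a, h⟩, map_one]

/-- the units of the simple roots -/
def sU (a : ℕ) : CAˣ :=
  if h : a < 8 then ⟨CliffordAlgebra.ι cForm (root a), CliffordAlgebra.ι cForm (root a), ca_sq h, ca_sq h⟩
  else 1

theorem sU_val {a : ℕ} (h : a < 8) : (sU a : CA) = CliffordAlgebra.ι cForm (root a) := by
  simp [sU, h]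

theorem sU_swap {a b : ℕ} (ha : a < 8) (hb : b < 8) (hne : a ≠ b) :
    (sU a : CA) * sU b + (sU b : CA) * sU a = if adjB a b then -1 else 0 := by
  rw [sU_val ha, sU_val hb, CliffordAlgebra.ι_mul_ι_add_swap, QuadraticMap.polar,
    cForm_polar ⟨a, ha⟩ ⟨b, hb⟩ (fun e => hne (congrArg Fin.val e))]
  cases adjB a b <;> simp

theorem sU_rels : DRels sU (-1 : CAˣ) where
  central x := by rw [neg_one_mul, mul_neg_one]
  dsq := by rw [neg_mul_neg, one_mul]
  sq a ha := Units.ext (by rw [Units.val_mul, sU_val ha, ca_sq ha, Units.val_one])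
  anti a b ha hb hne h := by
    have e := sU_swap ha hb hne
    rw [h] at e
    rw [neg_one_mul]
    exact Units.ext (eq_neg_of_add_eq_zero_left (by simpa using e))
  braid a b ha hb h := by
    have hne : a ≠ b := by
      rintro rfl
      interval_cases a <;> simp [adjB] at h
    have e := sU_swap ha hb hne
    rw [h, if_pos rfl] at e
    have hA : (sU a : CA) * sU a = 1 := by rw [sU_val ha, ca_sq ha]
    have hB : (sU b : CA) * sU b = 1 := by rw [sU_val hb, ca_sq hb]
    refine Units.ext ?_
    simp only [Units.val_mul]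
    have e1 : (sU a : CA) * sU b = -1 - (sU b : CA) * sU a := eq_sub_of_add_eq e
    have e2 : (sU b : CA) * sU a = -1 - (sU a : CA) * sU b := eq_sub_of_add_eq' e
    calc (sU a : CA) * sU b * sU a = (-1 - (sU b : CA) * sU a) * sU a := by rw [e1]
      _ = -(sU a : CA) - sU b := by rw [sub_mul, neg_one_mul, mul_assoc, hA, mul_one]
      _ = -(sU b : CA) - sU a := by abel
      _ = (-1 - (sU a : CA) * sU b) * sU b := by rw [sub_mul, neg_one_mul, mul_assoc, hB, mul_one]
      _ = _ := by rw [← e2]

theorem neg_one_ne_one : (-1 : CAˣ) ≠ 1 := by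
  intro e
  haveI : Invertible (2 : ℚ) := invertibleOfNonzero two_ne_zero
  have e' : (-1 : CA) = 1 := by simpa using congrArg Units.val e
  have h2 : algebraMap ℚ CA (-1) = algebraMap ℚ CA 1 := by rw [map_neg, map_one, e']
  exact absurd ((algebraMap ℚ CA).injective h2) (by norm_num)

/-- the identity behind perfectness -/
theorem pair_commutator {T : Type*} [Group T] {v : ℕ → T} {δ : T} (hv : DRels v δ) {p c m : ℕ}
    (hp : p < 8) (hc : c < 8) (hm : m < 8) (hpc : adjB p c = true) (h1 : m ≠ p) (h2 : m ≠ c)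
    (h3 : adjB m p = false) (h4 : adjB m c = false) :
    ⁅v p * v m, v p * v c⁆ = v p * v c := by
  have ip : (v p)⁻¹ = v p := inv_eq_of_mul_eq_one_right (hv.sq p hp)
  have ic : (v c)⁻¹ = v c := inv_eq_of_mul_eq_one_right (hv.sq c hc)
  have e : v m * (v p * v c) = v p * v c * v m := by
    rw [← mul_assoc, hv.anti m p hm hp h1 h3, mul_assoc δ, mul_assoc (v p),
      hv.anti m c hm hc h2 h4, ← mul_assoc (v p) δ, ← hv.central, mul_assoc δ (v p), ← mul_assoc δ δ,
      hv.dsq, one_mul, ← mul_assoc]
  rw [commutatorElement_def]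
  calc v p * v m * (v p * v c) * (v p * v m)⁻¹ * (v p * v c)⁻¹
      = v p * (v m * (v p * v c)) * (v m)⁻¹ * (v p)⁻¹ * (v c)⁻¹ * (v p)⁻¹ := by group
    _ = (v p * v p) * v c * (v p)⁻¹ * (v c)⁻¹ * (v p)⁻¹ := by rw [e]; group
    _ = v c * v p * v c * v p := by rw [hv.sq p hp, one_mul, ip, ic]
    _ = v p * v c := by rw [← hv.braid p c hp hc hpc, mul_assoc (v p * v c), hv.sq p hp, mul_one]

/-- `ω` anticommutes with the generators -/
theorem omega_anti {T : Type*} [Group T] {v : ℕ → T} {δ : T} (hv : DRels v δ) {a : ℕ} (ha : a < 8) :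
    v a * ev v longWord = δ * (ev v longWord * v a) := by
  have key : ev v (a :: longWord ++ a :: longWord.reverse) = δ := by
    interval_cases a
    exacts [runP_sound hv longConj0_check, runP_sound hv longConj1_check,
      runP_sound hv longConj2_check, runP_sound hv longConj3_check, runP_sound hv longConj4_check,
      runP_sound hv longConj5_check, runP_sound hv longConj6_check, runP_sound hv longConj7_check]
  rw [ev_append, ev_cons, ev_cons, ev_reverse hv longWord_lt] at key
  calc v a * ev v longWord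
      = (v a * ev v longWord * (v a * (ev v longWord)⁻¹)) * (ev v longWord * (v a)⁻¹) := by group
    _ = δ * (ev v longWord * v a) := by rw [key, inv_eq_of_mul_eq_one_right (hv.sq a ha)]

theorem omega_comm {T : Type*} [Group T] {v : ℕ → T} {δ : T} (hv : DRels v δ) {w : List ℕ}
    (hw : PairWord w) : ev v longWord * ev v w = ev v w * ev v longWord := by
  refine PairWord.rec' (P := fun w => ev v longWord * ev v w = ev v w * ev v longWord) (by simp) ?_ hw
  intro a b w ha hb _ ih
  have hh : ∀ c, c < 8 → ev v longWord * v c = δ * (v c * ev v longWord) := fun c hc => by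
    rw [omega_anti hv hc, ← mul_assoc δ, hv.dsq, one_mul]
  rw [ev_cons, ev_cons, ← mul_assoc, hh a ha, mul_assoc δ, mul_assoc (v a), ← mul_assoc (ev v longWord),
    hh b hb, mul_assoc δ, mul_assoc (v b), ih, ← mul_assoc (v a) δ, ← hv.central, mul_assoc δ (v a),
    ← mul_assoc δ δ, hv.dsq, one_mul]
  simp only [mul_assoc]

theorem oW_append {u w : List ℕ} (hu : PairWord u) (hw : PairWord w) :
    oW (u ++ w) = oW u * oW w :=
  Subtype.ext (by rw [Subgroup.coe_mul, oW_coe (hu.append hw), oW_coe hu, oW_coe hw, ev_append])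

/-- pairs of values of even words -/
def cover : Subgroup (CAˣ × Om) where
  carrier := {x | ∃ w, PairWord w ∧ x = (ev sU w, oW w)}
  one_mem' := ⟨[], .nil, rfl⟩
  mul_mem' := by
    rintro _ _ ⟨u, hu, rfl⟩ ⟨w, hw, rfl⟩
    exact ⟨u ++ w, hu.append hw, by rw [ev_append, oW_append hu hw]; rfl⟩
  inv_mem' := by
    rintro _ ⟨u, hu, rfl⟩
    refine ⟨u.reverse, hu.reverse, Prod.ext (ev_reverse sU_rels hu.lt).symm (Subtype.ext ?_)⟩
    show ((oW u : Om) : O8)⁻¹ = _
    rw [oW_coe hu, oW_coe hu.reverse, ev_reverse tEl_rels hu.lt]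

/-- the element of the cover of an even word -/
def cW {w : List ℕ} (hw : PairWord w) : cover := ⟨(ev sU w, oW w), w, hw, rfl⟩

/-- the projection -/
def coverHom : cover →* Om := (MonoidHom.snd CAˣ Om).comp cover.subtype

theorem coverHom_surjective : Function.Surjective coverHom := fun g => by
  obtain ⟨w, hw, e⟩ := exists_pairWord g.2
  exact ⟨cW hw, Subtype.ext ((oW_coe hw).trans e.symm)⟩

theorem ker_cases {x : cover} (hx : coverHom x = 1) :
    x.1.1 = 1 ∨ x.1.1 = -1 ∨ x.1.1 = ev sU longWord ∨ x.1.1 = -1 * ev sU longWord := by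
  obtain ⟨w, hw, e⟩ := x.2
  have h1 : ev tEl w = 1 := by
    rw [← oW_coe hw]
    have : oW w = 1 := by
      have := hx
      simp only [coverHom, MonoidHom.comp_apply, Subgroup.coe_subtype, MonoidHom.coe_snd, e] at this
      exact this
    rw [this]; rfl
  rw [e]
  exact kernel_values sU_rels hw.lt h1

theorem ker_le_center : coverHom.ker ≤ Subgroup.center cover := by
  intro x hx
  rw [Subgroup.mem_center_iff]
  intro g
  obtain ⟨w, hw, e⟩ := g.2
  refine Subtype.ext (Prod.ext ?_ ?_)
  · show g.1.1 * x.1.1 = x.1.1 * g.1.1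
    rw [e]
    rcases ker_cases hx with h | h | h | h <;> rw [h]
    · simp
    · exact (sU_rels.central _).symm
    · exact (omega_comm sU_rels hw).symm
    · rw [mul_assoc, omega_comm sU_rels hw, ← mul_assoc, ← sU_rels.central, mul_assoc]
  · show g.1.2 * x.1.2 = x.1.2 * g.1.2
    rw [show x.1.2 = 1 from hx, mul_one, one_mul]

theorem cW_mul {u w : List ℕ} (hu : PairWord u) (hw : PairWord w) :
    cW hu * cW hw = cW (hu.append hw) :=
  Subtype.ext (Prod.ext (ev_append ..).symm (oW_append hu hw).symm)

theorem edge_mem {p c m : ℕ} (hp : p < 8) (hc : c < 8) (hm : m < 8)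
    (h : (adjB p c && m != p && m != c && !adjB m p && !adjB m c) = true) :
    cW (PairWord.pair hp hc) ∈ commutator cover := by
  simp only [Bool.and_eq_true, bne_iff_ne, Bool.not_eq_true'] at h
  obtain ⟨⟨⟨⟨h0, h1⟩, h2⟩, h3⟩, h4⟩ := h
  have e : cW (PairWord.pair hp hc) = ⁅cW (PairWord.pair hp hm), cW (PairWord.pair hp hc)⁆ := by
    refine Subtype.ext (Prod.ext ?_ (Subtype.ext ?_))
    · show ev sU [p, c] = ⁅ev sU [p, m], ev sU [p, c]⁆
      simpa using (pair_commutator sU_rels hp hc hm h0 h1 h2 h3 h4).symm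
    · show ((oW [p, c] : Om) : O8) = ⁅((oW [p, m] : Om) : O8), ((oW [p, c] : Om) : O8)⁆
      rw [oW_coe (PairWord.pair hp hc), oW_coe (PairWord.pair hp hm)]
      simpa using (pair_commutator tEl_rels hp hc hm h0 h1 h2 h3 h4).symm
  rw [e]
  exact Subgroup.commutator_mem_commutator (Subgroup.mem_top _) (Subgroup.mem_top _)

theorem cover_perfect : commutator cover = ⊤ := by
  have key : ∀ {a b c : ℕ} (ha : a < 8) (hb : b < 8) (hc : c < 8),
      cW (PairWord.pair ha hc) * cW (PairWord.pair hc hb) = cW (PairWord.pair ha hb) := by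
    intro a b c ha hb hc
    rw [cW_mul]
    refine Subtype.ext (Prod.ext ?_ (Subtype.ext ?_))
    · show ev sU [a, c, c, b] = ev sU [a, b]
      simp only [ev_cons, ev_nil, mul_one, ← mul_assoc (sU c), sU_rels.sq c hc, one_mul]
    · show ((oW [a, c, c, b] : Om) : O8) = ((oW [a, b] : Om) : O8)
      rw [oW_coe (w := [a, c, c, b]) ((PairWord.pair ha hc).append (PairWord.pair hc hb)),
        oW_coe (PairWord.pair ha hb)]
      simp only [ev_cons, ev_nil, mul_one, ← mul_assoc (tEl c), tEl_rels.sq c hc, one_mul]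
  have h7 : ∀ a, (ha : a < 8) → cW (PairWord.pair (show 7 < 8 by omega) ha) ∈ commutator cover := by
    have g : ∀ {p c : ℕ} (m : ℕ) (hp : p < 8) (hc : c < 8) (hm : m < 8),
        cW (PairWord.pair (show 7 < 8 by omega) hp) ∈ commutator cover →
        (adjB p c && m != p && m != c && !adjB m p && !adjB m c) = true →
        cW (PairWord.pair (show 7 < 8 by omega) hc) ∈ commutator cover := by
      intro p c m hp hc hm h1 h2
      rw [← key (show 7 < 8 by omega) hc hp]
      exact mul_mem h1 (edge_mem hp hc hm h2)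
    have m6 := edge_mem (p := 7) (c := 6) (m := 0) (by omega) (by omega) (by omega) rfl
    have m5 := g (p := 6) (c := 5) 0 (by omega) (by omega) (by omega) m6 rfl
    have m4 := g (p := 5) (c := 4) 0 (by omega) (by omega) (by omega) m5 rfl
    have m3 := g (p := 4) (c := 3) 0 (by omega) (by omega) (by omega) m4 rfl
    have m2 := g (p := 3) (c := 2) 5 (by omega) (by omega) (by omega) m3 rfl
    have m1 := g (p := 3) (c := 1) 5 (by omega) (by omega) (by omega) m3 rfl
    have m0 := g (p := 2) (c := 0) 5 (by omega) (by omega) (by omega) m2 rfl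
    intro a ha
    have m7 : cW (PairWord.pair (show 7 < 8 by omega) (show 7 < 8 by omega)) ∈ commutator cover := by
      have e := key (a := 7) (b := 7) (c := 7) (by omega) (by omega) (by omega)
      rw [mul_eq_left] at e
      rw [e]; exact one_mem _
    interval_cases a <;> assumption
  suffices h : ∀ {w}, (hw : PairWord w) → cW hw ∈ commutator cover by
    rw [eq_top_iff]
    rintro ⟨x, w, hw, rfl⟩ -
    exact h hw
  intro w hw
  refine PairWord.rec' (P := fun w => ∀ hw : PairWord w, cW hw ∈ commutator cover)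
    (fun _ => one_mem _) ?_ hw hw
  intro a b w ha hb hw ih _
  have e : cW (PairWord.pair ha hb) =
      (cW (PairWord.pair (show 7 < 8 by omega) ha))⁻¹ * cW (PairWord.pair (show 7 < 8 by omega) hb) := by
    rw [eq_inv_mul_iff_mul_eq, key (show 7 < 8 by omega) hb ha]
  have := mul_mem (e ▸ mul_mem (inv_mem (h7 a ha)) (h7 b hb)) (ih hw)
  rwa [cW_mul] at this

theorem cover_stem : IsStemExtension coverHom :=
  ⟨coverHom_surjective, ker_le_center, cover_perfect ▸ le_top⟩

/-- the kernel of the cover is a four-group -/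
theorem cover_ker : Nonempty (coverHom.ker ≃* Multiplicative (ZMod 2 × ZMod 2)) := by
  obtain ⟨π, hπ⟩ := exists_surjective cover_stem
  haveI : Finite coverHom.ker := Finite.of_surjective π hπ
  let z : Bool × Bool → CAˣ := fun x => (if x.1 then -1 else 1) * (if x.2 then ev sU longWord else 1)
  have hmem : ∀ x, ∃ k : coverHom.ker, k.1.1.1 = z x := by
    have hL : coverHom (cW longWord_pair) = 1 :=
      Subtype.ext ((oW_coe longWord_pair).trans longWord_ev)
    have hq : PairWord [4, 6, 4, 6] := (PairWord.pair (by omega) (by omega)).append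
      (PairWord.pair (by omega) (by omega))
    have hN : coverHom (cW hq) = 1 := oW_eq (u := [4, 6, 4, 6]) (w := []) (by decide +kernel)
    have hNv : ev sU [4, 6, 4, 6] = -1 := by
      have h := sU_rels.anti 4 6 (by omega) (by omega) (by omega) rfl
      calc ev sU [4, 6, 4, 6] = sU 4 * sU 6 * sU 4 * sU 6 := by simp [mul_assoc]
        _ = -1 * (sU 6 * sU 4) * sU 4 * sU 6 := by rw [h]
        _ = -1 * (sU 6 * (sU 4 * sU 4) * sU 6) := by simp only [mul_assoc]
        _ = -1 := by rw [sU_rels.sq 4 (by omega), mul_one, sU_rels.sq 6 (by omega), mul_one]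
    rintro ⟨a, b⟩
    cases a <;> cases b
    · exact ⟨1, by simp [z]⟩
    · exact ⟨⟨cW longWord_pair, hL⟩, by simp [z, cW]⟩
    · exact ⟨⟨cW hq, hN⟩, by simp [z, cW, hNv]⟩
    · exact ⟨⟨cW hq, hN⟩ * ⟨cW longWord_pair, hL⟩, by simp [z, cW, hNv]⟩
  have hω1 : ev sU longWord ≠ 1 := fun e => by
    have h := omega_anti sU_rels (show 0 < 8 by omega)
    rw [e, mul_one, one_mul] at h
    exact neg_one_ne_one (mul_eq_right.mp h.symm)
  have hω2 : ev sU longWord ≠ -1 := fun e => by
    have h := omega_anti sU_rels (show 0 < 8 by omega)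
    rw [e, ← sU_rels.central (sU 0), ← mul_assoc, sU_rels.dsq, one_mul] at h
    exact neg_one_ne_one (mul_eq_right.mp h)
  have hz : Function.Injective z := by
    have h1 := neg_one_ne_one
    have h4 : -1 * ev sU longWord ≠ 1 := fun e => hω2 (by
      calc ev sU longWord = (-1 * -1) * ev sU longWord := by rw [sU_rels.dsq, one_mul]
        _ = -1 := by rw [mul_assoc, e, mul_one])
    have h5 : -1 * ev sU longWord ≠ -1 := fun e => hω1 (mul_eq_left.mp e)
    have h6 : -1 * ev sU longWord ≠ ev sU longWord := fun e => h1 (mul_eq_right.mp e)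
    rintro ⟨a, b⟩ ⟨c, d⟩ h
    cases a <;> cases b <;> cases c <;> cases d <;>
      simp only [z, Bool.false_eq_true, if_false, if_true, mul_one, one_mul] at h <;>
      first
        | rfl
        | exact absurd h h1 | exact absurd h.symm h1
        | exact absurd h hω1 | exact absurd h.symm hω1
        | exact absurd h hω2 | exact absurd h.symm hω2
        | exact absurd h h4 | exact absurd h.symm h4
        | exact absurd h h5 | exact absurd h.symm h5
        | exact absurd h h6 | exact absurd h.symm h6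
  choose k hk using hmem
  have hle : 4 ≤ Nat.card coverHom.ker := by
    have := Nat.card_le_card_of_injective k (fun x y e => hz (by rw [← hk, ← hk, e]))
    simpa using this
  have hA : Nat.card (Multiplicative (ZMod 2 × ZMod 2)) = 4 := by simp
  have hge := Nat.card_le_card_of_surjective π hπ
  exact ⟨(MulEquiv.ofBijective π
    ((Nat.bijective_iff_surjective_and_card π).mpr ⟨hπ, by omega⟩)).symm⟩

theorem cover_finite : Finite cover := by
  obtain ⟨e⟩ := cover_ker
  haveI : Finite coverHom.ker := Finite.of_equiv _ e.symm.toEquiv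
  refine Finite.of_injective (fun g : cover => (coverHom g,
    (⟨(Function.surjInv coverHom_surjective (coverHom g))⁻¹ * g, by
      rw [MonoidHom.mem_ker, map_mul, map_inv, Function.surjInv_eq coverHom_surjective,
        inv_mul_cancel]⟩ : coverHom.ker))) ?_
  intro g h e
  obtain ⟨e1, e2⟩ := Prod.mk.inj e
  have e3 := congrArg Subtype.val e2
  simp only [e1] at e3
  exact mul_left_cancel e3

/-- the multiplier of `Ω⁺(8, 2)` -/
theorem hasSchurMultiplier_omega :
    HasSchurMultiplier Om (Multiplicative (ZMod 2 × ZMod 2)) :=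
  ⟨⟨cover, inferInstance, cover_finite, coverHom, cover_stem, cover_ker⟩,
    fun _ _ _ _ h => exists_surjective h⟩

end Cfsg.Agent.OmegaEightCover
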