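import Cfsg.Agent.OmegaEightCover.Lower

/-! Transport of the multiplier to an arbitrary field with two elements. -/

set_option autoImplicit false

namespace Cfsg.Agent.OmegaEightCover

open Cfsg
open scoped Matrix

variable {F : Type*} [Field F]

theorem map_mem_iff (e : F ≃+* ZMod 2) (g : GL (Fin 4 ⊕ Fin 4) F) :
    Units.mapEquiv (RingEquiv.mapMatrix e).toMulEquiv g ∈ O8 ↔
      g ∈ isometryGroup F (quadFormPlus 4 F) := by
  have hq : ∀ v : Fin 4 ⊕ Fin 4 → F, quadFormPlus 4 (ZMod 2) (e ∘ v) = e (quadFormPlus 4 F v) :=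
    fun v => by simp [quadFormPlus, map_sum]
  have hm : ∀ v : Fin 4 ⊕ Fin 4 → F,
      (g.1.map e) *ᵥ (e ∘ v) = e ∘ (g.1 *ᵥ v) := fun v => by
    funext i
    exact (RingHom.map_mulVec e.toRingHom g.1 v i).symm
  constructor
  · intro h u w
    have h1 := h (e ∘ u) (e ∘ w)
    refine e.injective ?_
    simp only [← hq, Units.coeHom_apply]
    rw [← hm]
    exact h1
  · intro h u w
    obtain ⟨u, rfl⟩ : ∃ u', u = e ∘ u' := ⟨e.symm ∘ u, by funext i; simp⟩
    show Qp ((g.1.map e) *ᵥ (e ∘ u)) = Qp (e ∘ u)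
    rw [hm, Qp, hq, hq]
    exact congrArg e (h u (fun _ => 0))

/-- the isometry groups agree -/
def isoEquiv (e : F ≃+* ZMod 2) : isometryGroup F (quadFormPlus 4 F) ≃* O8 :=
  ((Units.mapEquiv (RingEquiv.mapMatrix e).toMulEquiv).subgroupMap _).trans (MulEquiv.subgroupCongr (by
    ext x
    obtain ⟨g, rfl⟩ := (Units.mapEquiv (RingEquiv.mapMatrix (m := Fin 4 ⊕ Fin 4) e).toMulEquiv).surjective x
    rw [map_mem_iff]
    exact Subgroup.mem_map_iff_mem (MulEquiv.injective _)))

/-- the multiplier over any field with two elements -/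
theorem hasSchurMultiplier_pomega [Fintype F] (hF : Fintype.card F = 2) :
    HasSchurMultiplier (POmega F (quadFormPlus 4 F)) (Multiplicative (ZMod 2 × ZMod 2)) := by
  have e : F ≃+* ZMod 2 := (ZMod.ringEquivOfPrime F Nat.prime_two hF).symm
  let E := isoEquiv e
  let Ψ : Omega F (quadFormPlus 4 F) ≃* Om :=
    (E.subgroupMap _).trans (MulEquiv.subgroupCongr (Classical.map_commutator_top_of_equiv E))
  let Θ : POmega F (quadFormPlus 4 F) ≃* Om :=
    (Classical.centerQuotientEquiv Ψ).trans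
      ((QuotientGroup.quotientMulEquivOfEq om_center).trans QuotientGroup.quotientBot)
  exact CentralExt.hasSchurMultiplier_congr Θ.symm hasSchurMultiplier_omega

end Cfsg.Agent.OmegaEightCover
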