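import Cfsg.Agent.OmegaEightCover.Words
import Cfsg.Agent.CentralExt.Basic

/-!
In a stem extension of `Ω⁺(8, 2)` the kernel is generated by two elements of order at most two.
The lift of a product of two non-commuting transvections is normalised by an element inverting it.
-/

set_option autoImplicit false
set_option maxRecDepth 20000

namespace Cfsg.Agent.OmegaEightCover

open Cfsg

/-- the value of a pair word in `Ω⁺(8, 2)` -/
def oW : List ℕ → Om
  | a :: b :: w => rO a b * oW w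
  | _ => 1

theorem oW_coe : ∀ {w : List ℕ}, PairWord w → ((oW w : Om) : O8) = ev tEl w := by
  intro w hw
  refine PairWord.rec' (P := fun w => ((oW w : Om) : O8) = ev tEl w) rfl ?_ hw
  intro a b w ha hb _ ih
  show ((rO a b : Om) : O8) * ((oW w : Om) : O8) = _
  rw [ih, rO_coe ha hb, ← ev_append]
  rfl

/-- check of the equality of two pair words in `O⁺(8, 2)` -/
def chk (u w : List ℕ) : Bool :=
  (u.all fun a => decide (a < 8)) && u.length % 2 == 0 && (w.all fun a => decide (a < 8)) &&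
    w.length % 2 == 0 && (List.range 8).all fun i => actW u (2 ^ i) == actW w (2 ^ i)

theorem oW_eq {u w : List ℕ} (h : chk u w = true) : oW u = oW w := by
  simp only [chk, Bool.and_eq_true, List.all_eq_true, decide_eq_true_eq, beq_iff_eq,
    List.mem_range] at h
  obtain ⟨⟨⟨⟨hu, hu2⟩, hw⟩, hw2⟩, ha⟩ := h
  apply Subtype.ext
  rw [oW_coe ⟨hu, Nat.even_iff.mpr hu2⟩, oW_coe ⟨hw, Nat.even_iff.mpr hw2⟩]
  refine ev_eq_of_act hu hw fun s => ha _ ?_
  cases s <;> simp [bitPos] <;> omega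

theorem oW_pair (a b : ℕ) : oW [a, b] = rO a b := by simp [oW]

theorem rO_inv {a b : ℕ} (ha : a < 8) (hb : b < 8) : (rO a b)⁻¹ = rO b a := by
  apply Subtype.ext
  rw [Subgroup.coe_inv, rO_coe ha hb, rO_coe hb ha, ← ev_reverse tEl_rels (by simp [ha, hb])]
  rfl

theorem rO_seven {a b : ℕ} (ha : a < 8) (hb : b < 8) : (rO 7 a)⁻¹ * rO 7 b = rO a b := by
  rw [rO_inv (by omega) ha]
  apply Subtype.ext
  rw [Subgroup.coe_mul, rO_coe ha (by omega), rO_coe (by omega) hb, rO_coe ha hb]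
  simp only [ev_cons, ev_nil, mul_one]
  rw [mul_assoc, ← mul_assoc (tEl 7), tEl_rels.sq 7 (by omega), one_mul]

section Stem

variable {Γ : Type*} [Group Γ] (σ : Γ →* Om)

/-- `A` is inverted by every lift of `j` -/
def InvBy (A : Γ) (j : Om) : Prop := ∀ J, σ J = j → J * A * J⁻¹ = A⁻¹

variable {σ}

section
variable (hc : σ.ker ≤ Subgroup.center Γ)
include hc

theorem ker_comm {z : Γ} (hz : σ z = 1) (g : Γ) : z * g = g * z :=
  (Subgroup.mem_center_iff.mp (hc hz) g).symm

theorem InvBy.of_lift {A J : Γ} {j : Om} (hJ : σ J = j) (h : J * A * J⁻¹ = A⁻¹) : InvBy σ A j := by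
  intro K hK
  have hz : σ (K * J⁻¹) = 1 := by rw [map_mul, map_inv, hJ, hK, mul_inv_cancel]
  have e := ker_comm hc hz (J * A * J⁻¹)
  calc K * A * K⁻¹ = (K * J⁻¹) * (J * A * J⁻¹) * (K * J⁻¹)⁻¹ := by group
    _ = A⁻¹ := by rw [e, mul_inv_cancel_right, h]

/-- a lift of order three inverted by `j` -/
theorem exists_lift (hs : Function.Surjective σ) (x j : Om) (hx : x ^ 3 = 1)
    (hj : j * x * j⁻¹ = x⁻¹) : ∃ A : Γ, σ A = x ∧ A ^ 3 = 1 ∧ InvBy σ A j := by
  obtain ⟨X, hX⟩ := hs x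
  obtain ⟨J, hJ⟩ := hs j
  set Y := J * X * J⁻¹ * X⁻¹ with hY
  have hσY : σ Y = x := by
    rw [hY, map_mul, map_mul, map_mul, map_inv, map_inv, hX, hJ, hj]
    calc x⁻¹ * x⁻¹ = (x ^ 3)⁻¹ * x := by group
      _ = x := by rw [hx, inv_one, one_mul]
  have hl : σ (J * X * J⁻¹ * X) = 1 := by
    rw [map_mul, map_mul, map_mul, map_inv, hX, hJ, hj, inv_mul_cancel]
  set l := J * X * J⁻¹ * X with hl'
  have hlc := ker_comm hc hl
  have hJX : J * X * J⁻¹ = l * X⁻¹ := by rw [hl']; group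
  have hJXi : J * X⁻¹ * J⁻¹ = X * l⁻¹ := by
    calc J * X⁻¹ * J⁻¹ = (J * X * J⁻¹)⁻¹ := by group
      _ = _ := by rw [hJX]; group
  have hJY : J * Y * J⁻¹ = Y⁻¹ := by
    have hY1 : Y = l * X⁻¹ * X⁻¹ := by rw [hY, hJX]
    calc J * Y * J⁻¹ = (J * l * J⁻¹) * (J * X⁻¹ * J⁻¹) * (J * X⁻¹ * J⁻¹) := by rw [hY1]; group
      _ = l * (X * l⁻¹) * (X * l⁻¹) := by rw [← hlc J, mul_inv_cancel_right, hJXi]
      _ = (l * X) * l⁻¹ * X * l⁻¹ := by group
      _ = X * X * l⁻¹ := by rw [hlc X, mul_inv_cancel_right]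
      _ = Y⁻¹ := by simp [hY1, _root_.mul_inv_rev, mul_assoc]
  have hY3 : σ (Y ^ 3) = 1 := by rw [map_pow, hσY, hx]
  have h6 : Y ^ 6 = 1 := by
    have e : J * Y ^ 3 * J⁻¹ = (Y ^ 3)⁻¹ := by rw [← conj_pow, hJY, inv_pow]
    rw [← ker_comm hc hY3 J, mul_inv_cancel_right] at e
    rw [show (6 : ℕ) = 3 + 3 by rfl, pow_add]
    nth_rw 1 [e]
    exact inv_mul_cancel _
  refine ⟨Y ^ 4, ?_, ?_, InvBy.of_lift hc hJ ?_⟩
  · rw [pow_succ Y 3, map_mul, hY3, one_mul, hσY]
  · rw [← pow_mul, show 4 * 3 = 6 * 2 by rfl, pow_mul, h6, one_pow]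
  · rw [← conj_pow, hJY, inv_pow]

theorem InvBy.unique {A B : Γ} {j : Om} (hs : Function.Surjective σ) (hA : InvBy σ A j)
    (hB : InvBy σ B j) (he : σ A = σ B) (hA3 : A ^ 3 = 1) (hB3 : B ^ 3 = 1) : A = B := by
  obtain ⟨J, hJ⟩ := hs j
  obtain ⟨l, rfl⟩ : ∃ l, B = l * A := ⟨B * A⁻¹, (inv_mul_cancel_right B A).symm⟩
  have hl : σ l = 1 := by simpa [map_mul] using he
  have hlc := ker_comm hc hl
  have h3 : l ^ 3 = 1 := by
    have := hB3; rwa [(show Commute l A from hlc A).mul_pow, hA3, mul_one] at this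
  have h2 : l = l⁻¹ := by
    have e := hB J hJ
    rw [show J * (l * A) * J⁻¹ = (J * l) * A * J⁻¹ by group, ← hlc J,
      show l * J * A * J⁻¹ = l * (J * A * J⁻¹) by group, hA J hJ, mul_inv_rev,
      ← ((show Commute l A from hlc A).inv_inv).eq] at e
    exact mul_right_cancel e
  have : l = 1 := by
    have e : l * l = 1 := by nth_rw 2 [h2]; exact mul_inv_cancel l
    calc l = l * (l * l) := by rw [e, mul_one]
      _ = l ^ 3 := by rw [pow_succ', pow_two]
      _ = 1 := h3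
  rw [this, one_mul]

/-- change of the inverting element -/
theorem InvBy.transfer {A : Γ} {j j' x : Om} (hs : Function.Surjective σ) (hA : InvBy σ A j)
    (hx : σ A = x) (hA3 : A ^ 3 = 1) (hk : (j' * j⁻¹) * (j' * j⁻¹) = 1)
    (hj : j' * x * j'⁻¹ = x⁻¹) : InvBy σ A j' := by
  obtain ⟨J, hJ⟩ := hs j
  obtain ⟨J', hJ'⟩ := hs j'
  have hjx : j * x * j⁻¹ = x⁻¹ := by
    have := congrArg σ (hA J hJ)
    rwa [map_mul, map_mul, map_inv, map_inv, hJ, hx] at this
  set K := J' * J⁻¹ with hK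
  have hKK : σ (K * K) = 1 := by rw [map_mul, hK, map_mul, map_inv, hJ, hJ', hk]
  set l := K * A * K⁻¹ * A⁻¹ with hl'
  have hl : σ l = 1 := by
    rw [hl', hK]
    simp only [map_mul, map_inv, hJ, hJ', hx]
    have e : j⁻¹ * x * j = x⁻¹ := by
      calc j⁻¹ * x * j = j⁻¹ * (x⁻¹)⁻¹ * j := by rw [inv_inv]
        _ = j⁻¹ * (j * x * j⁻¹)⁻¹ * j := by rw [hjx]
        _ = x⁻¹ := by group
    calc j' * j⁻¹ * x * (j' * j⁻¹)⁻¹ * x⁻¹ = j' * (j⁻¹ * x * j) * j'⁻¹ * x⁻¹ := by group
      _ = (j' * x * j'⁻¹)⁻¹ * x⁻¹ := by rw [e]; group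
      _ = 1 := by rw [hj, inv_inv, mul_inv_cancel]
  have hlc := ker_comm hc hl
  have hKA : K * A * K⁻¹ = l * A := by rw [hl']; group
  have h2 : l * l = 1 := by
    have e : K * (K * A * K⁻¹) * K⁻¹ = A := by
      calc K * (K * A * K⁻¹) * K⁻¹ = (K * K) * A * (K * K)⁻¹ := by group
        _ = A := by rw [ker_comm hc hKK A, mul_inv_cancel_right]
    rw [hKA, show K * (l * A) * K⁻¹ = (K * l) * A * K⁻¹ by group, ← hlc K,
      show l * K * A * K⁻¹ = l * (K * A * K⁻¹) by group, hKA, ← mul_assoc] at e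
    exact mul_eq_right.mp e
  have h3 : l ^ 3 = 1 := by
    have e : (l * A) ^ 3 = 1 := by rw [← hKA, conj_pow, hA3, mul_one, mul_inv_cancel]
    rwa [(show Commute l A from hlc A).mul_pow, hA3, mul_one] at e
  have hl1 : l = 1 := by
    calc l = l * (l * l) := by rw [h2, mul_one]
      _ = l ^ 3 := by rw [pow_succ', pow_two]
      _ = 1 := h3
  refine InvBy.of_lift hc hJ' ?_
  calc J' * A * J'⁻¹ = K * (J * A * J⁻¹) * K⁻¹ := by rw [hK]; group
    _ = (K * A * K⁻¹)⁻¹ := by rw [hA J hJ]; group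
    _ = A⁻¹ := by rw [hKA, hl1, one_mul]

theorem InvBy.shift {A : Γ} {j : Om} (hs : Function.Surjective σ) (hA : InvBy σ A j) :
    InvBy σ A ((σ A)⁻¹ * j) := by
  obtain ⟨J, hJ⟩ := hs j
  refine InvBy.of_lift hc (J := A⁻¹ * J) (by rw [map_mul, map_inv, hJ]) ?_
  calc A⁻¹ * J * A * (A⁻¹ * J)⁻¹ = A⁻¹ * (J * A * J⁻¹) * A := by group
    _ = A⁻¹ := by rw [hA J hJ, inv_mul_cancel_right]

end

theorem InvBy.conj {A : Γ} {j : Om} (G : Γ) (hA : InvBy σ A j) :
    InvBy σ (G * A * G⁻¹) (σ G * j * (σ G)⁻¹) := by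
  intro J hJ
  have := hA (G⁻¹ * J * G) (by rw [map_mul, map_mul, map_inv, hJ]; group)
  calc J * (G * A * G⁻¹) * J⁻¹ = G * ((G⁻¹ * J * G) * A * (G⁻¹ * J * G)⁻¹) * G⁻¹ := by group
    _ = _ := by rw [this]; group

theorem InvBy.inv {A : Γ} {j : Om} (hA : InvBy σ A j) : InvBy σ A⁻¹ j := fun J hJ => by
  rw [inv_inv]
  calc J * A⁻¹ * J⁻¹ = (J * A * J⁻¹)⁻¹ := by group
    _ = A := by rw [hA J hJ, inv_inv]

/-- the normalised lift of the product of the transvections of the ends `p`, `c` of an edge -/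
structure Edge (σ : Γ →* Om) (A : Γ) (p c m : ℕ) : Prop where
  img : σ A = rO p c
  cube : A ^ 3 = 1
  inv : InvBy σ A (rO p m)

section
variable (hc : σ.ker ≤ Subgroup.center Γ) (hs : Function.Surjective σ)
include hc hs

theorem exists_edge (p c m : ℕ) (h : (chk [p, c, p, c, p, c] [] && chk [p, m, p, c, m, p] [c, p] &&
    decide (p < 8) && decide (c < 8) && decide (m < 8)) = true) :
    ∃ A : Γ, Edge σ A p c m := by
  simp only [Bool.and_eq_true, decide_eq_true_eq] at h
  obtain ⟨⟨⟨⟨h1, h2⟩, hp⟩, hc'⟩, hm⟩ := h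
  obtain ⟨A, a1, a2, a3⟩ := exists_lift hc hs (rO p c) (rO p m)
    (by have := oW_eq h1; simpa [oW, pow_succ, mul_assoc] using this)
    (by
      rw [rO_inv hp hm, rO_inv hp hc']
      have := oW_eq h2
      simpa [oW, mul_assoc] using this)
  exact ⟨A, a1, a2, a3⟩

theorem Edge.move {A : Γ} {p c m : ℕ} (hA : Edge σ A p c m) (m' : ℕ)
    (h : (chk [p, m', m, p, p, m', m, p] [] && chk [p, m', p, c, m', p] [c, p] &&
      decide (p < 8) && decide (c < 8) && decide (m < 8) && decide (m' < 8)) = true) :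
    Edge σ A p c m' := by
  simp only [Bool.and_eq_true, decide_eq_true_eq] at h
  obtain ⟨⟨⟨⟨⟨h1, h2⟩, hp⟩, hc'⟩, hm⟩, hm'⟩ := h
  refine ⟨hA.img, hA.cube, InvBy.transfer hc hs hA.inv hA.img hA.cube ?_ ?_⟩
  · rw [rO_inv hp hm]; have := oW_eq h1; simpa [oW, mul_assoc] using this
  · rw [rO_inv hp hm', rO_inv hp hc']; have := oW_eq h2; simpa [oW, mul_assoc] using this

omit hs in
theorem Edge.toP {A : Γ} {p c m : ℕ} (hA : Edge σ A p c m) (h : chk [p, m] [m, p] = true) :
    InvBy σ A (rO m p) := by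
  have := oW_eq h
  rw [oW_pair, oW_pair] at this
  exact this ▸ hA.inv

theorem Edge.toC {A : Γ} {p c m : ℕ} (hA : Edge σ A p c m)
    (h : (chk [c, p, p, m] [m, c] && decide (p < 8) && decide (c < 8)) = true) :
    InvBy σ A (rO m c) := by
  simp only [Bool.and_eq_true, decide_eq_true_eq] at h
  obtain ⟨⟨h1, hp⟩, hc'⟩ := h
  have h2 := InvBy.shift hc hs hA.inv
  rw [hA.img, rO_inv hp hc'] at h2
  have := oW_eq h1
  simp only [oW, mul_one] at this
  exact this ▸ h2

end

/-- `(R i⁻¹ R j)² = δ` -/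
def ZRel (R : ℕ → Γ) (δ : Γ) (i j : ℕ) : Prop := (R i)⁻¹ * R j * ((R i)⁻¹ * R j) = δ

theorem ZRel.symm {R : ℕ → Γ} {δ : Γ} {i j : ℕ} (hd : δ * δ = 1) (h : ZRel R δ i j) :
    ZRel R δ j i := by
  unfold ZRel at h ⊢
  calc (R j)⁻¹ * R i * ((R j)⁻¹ * R i) = ((R i)⁻¹ * R j * ((R i)⁻¹ * R j))⁻¹ := by group
    _ = δ := by rw [h]; exact inv_eq_of_mul_eq_one_right hd

/-- a step along an edge -/
theorem ZRel.step {R : ℕ → Γ} {δ : Γ} {i j k : ℕ} (hi : i < 8) (hj : j < 8)
    (hR : ∀ a, a < 8 → σ (R a) = rO 7 a) (hB : InvBy σ ((R j)⁻¹ * R k) (rO i j))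
    (h : ZRel R δ i j) : ZRel R δ i k := by
  unfold ZRel at h ⊢
  have hσ : σ ((R i)⁻¹ * R j) = rO i j := by
    rw [map_mul, map_inv, hR i hi, hR j hj, rO_seven hi hj]
  set p := (R i)⁻¹ * R j with hp
  set B := (R j)⁻¹ * R k with hB'
  have e : p⁻¹ * B * p = B⁻¹ := by
    calc p⁻¹ * B * p = p⁻¹ * (B⁻¹)⁻¹ * p := by rw [inv_inv]
      _ = p⁻¹ * (p * B * p⁻¹)⁻¹ * p := by rw [hB p hσ]
      _ = B⁻¹ := by group
  calc (R i)⁻¹ * R k * ((R i)⁻¹ * R k) = p * p * (p⁻¹ * B * p) * B := by rw [hp, hB']; group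
    _ = δ := by rw [e, inv_mul_cancel_right, h]

set_option maxHeartbeats 1000000 in
/-- images of the eight generators up to one of them, and the relations satisfied by them -/
theorem exists_generators (hc : σ.ker ≤ Subgroup.center Γ) (hs : Function.Surjective σ) :
    ∃ (R : ℕ → Γ) (δ : Γ), (∀ a, a < 8 → σ (R a) = rO 7 a) ∧ σ δ = 1 ∧ δ * δ = 1 ∧
      (∀ a b, a < 8 → b < 8 → adjB a b = true → ((R a)⁻¹ * R b) ^ 3 = 1) ∧
      (∀ a b, a < 8 → b < 8 → a ≠ b → adjB a b = false → ZRel R δ a b) := by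
  obtain ⟨A1, h1⟩ := exists_edge hc hs 7 6 0 (by decide +kernel)
  obtain ⟨A2, h2⟩ := exists_edge hc hs 6 5 0 (by decide +kernel)
  obtain ⟨A3, h3⟩ := exists_edge hc hs 5 4 0 (by decide +kernel)
  obtain ⟨A4, h4⟩ := exists_edge hc hs 4 3 0 (by decide +kernel)
  obtain ⟨A5, h5⟩ := exists_edge hc hs 3 2 5 (by decide +kernel)
  obtain ⟨A6, h6⟩ := exists_edge hc hs 3 1 5 (by decide +kernel)
  obtain ⟨A7, h7⟩ := exists_edge hc hs 2 0 5 (by decide +kernel)
  let R : ℕ → Γ := fun a => match a with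
    | 6 => A1
    | 5 => A1 * A2
    | 4 => A1 * A2 * A3
    | 3 => A1 * A2 * A3 * A4
    | 2 => A1 * A2 * A3 * A4 * A5
    | 1 => A1 * A2 * A3 * A4 * A6
    | 0 => A1 * A2 * A3 * A4 * A5 * A7
    | _ => 1
  have e76 : (R 7)⁻¹ * R 6 = A1 := by simp only [R]; group
  have e65 : (R 6)⁻¹ * R 5 = A2 := by simp only [R]; group
  have e54 : (R 5)⁻¹ * R 4 = A3 := by simp only [R]; group
  have e43 : (R 4)⁻¹ * R 3 = A4 := by simp only [R]; group
  have e32 : (R 3)⁻¹ * R 2 = A5 := by simp only [R]; group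
  have e31 : (R 3)⁻¹ * R 1 = A6 := by simp only [R]; group
  have e20 : (R 2)⁻¹ * R 0 = A7 := by simp only [R]; group
  have u67 : (R 6)⁻¹ * R 7 = A1⁻¹ := by simp only [R]; group
  have u56 : (R 5)⁻¹ * R 6 = A2⁻¹ := by simp only [R]; group
  have u45 : (R 4)⁻¹ * R 5 = A3⁻¹ := by simp only [R]; group
  have u02 : (R 0)⁻¹ * R 2 = A7⁻¹ := by simp only [R]; group
  have e7 : R 7 = 1 := rfl
  clear_value R
  have hR : ∀ a, a < 8 → σ (R a) = rO 7 a := by
    have g : ∀ p c, p < 8 → c < 8 → σ (R p) = rO 7 p → σ ((R p)⁻¹ * R c) = rO p c →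
        σ (R c) = rO 7 c := by
      intro p c hp hc' e1 e2
      rw [map_mul, map_inv, e1, ← rO_seven hp hc'] at e2
      exact mul_left_cancel e2
    have r7 : σ (R 7) = rO 7 7 := by
      rw [e7, map_one, ← oW_pair]
      exact oW_eq (u := []) (by decide +kernel)
    have r6 := g 7 6 (by omega) (by omega) r7 (e76 ▸ h1.img)
    have r5 := g 6 5 (by omega) (by omega) r6 (e65 ▸ h2.img)
    have r4 := g 5 4 (by omega) (by omega) r5 (e54 ▸ h3.img)
    have r3 := g 4 3 (by omega) (by omega) r4 (e43 ▸ h4.img)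
    have r2 := g 3 2 (by omega) (by omega) r3 (e32 ▸ h5.img)
    have r1 := g 3 1 (by omega) (by omega) r3 (e31 ▸ h6.img)
    have r0 := g 2 0 (by omega) (by omega) r2 (e20 ▸ h7.img)
    intro a ha
    interval_cases a <;> assumption
  obtain ⟨δ, hδdef⟩ : ∃ δ, δ = (R 4)⁻¹ * R 6 * ((R 4)⁻¹ * R 6) := ⟨_, rfl⟩
  have z46 : ZRel R δ 4 6 := hδdef.symm
  have hδ : σ δ = 1 := by
    have := congrArg σ hδdef
    rw [this, map_mul, map_mul, map_inv, hR 4 (by omega), hR 6 (by omega),
      rO_seven (by omega) (by omega)]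
    have := oW_eq (u := [4, 6, 4, 6]) (w := []) (by decide +kernel)
    simpa [oW] using this
  have hdd : δ * δ = 1 := by
    have hd := ker_comm hc hδ
    -- the two lifts inverted by the same element
    have hab : A3⁻¹ * A2⁻¹ * (A3⁻¹ * A2⁻¹) = δ := by rw [hδdef, ← u45, ← u56]; group
    have ha3 : (A3⁻¹) ^ 3 = 1 := by rw [inv_pow, h3.cube, inv_one]
    have hb3 : (A2⁻¹) ^ 3 = 1 := by rw [inv_pow, h2.cube, inv_one]
    set a := A3⁻¹ with ha'
    set b := A2⁻¹ with hb'
    have hbi : b * b = b⁻¹ := by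
      calc b * b = b ^ 3 * b⁻¹ := by rw [pow_succ b 2, pow_two, mul_inv_cancel_right]
        _ = b⁻¹ := by rw [hb3, one_mul]
    have hai : a * a = a⁻¹ := by
      calc a * a = a ^ 3 * a⁻¹ := by rw [pow_succ a 2, pow_two, mul_inv_cancel_right]
        _ = a⁻¹ := by rw [ha3, one_mul]
    have hbab : b * a * b⁻¹ = δ * (a * a * b) := by
      calc b * a * b⁻¹ = a⁻¹ * (a * b * (a * b)) * (b⁻¹ * b⁻¹) := by group
        _ = δ * (a * a * b) := by
          rw [hab, ← hd a⁻¹, hai]
          calc δ * a⁻¹ * (b⁻¹ * b⁻¹) = δ * (a⁻¹ * (b * b)⁻¹) := by rw [_root_.mul_inv_rev, mul_assoc]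
            _ = δ * (a⁻¹ * b) := by simp only [hbi, inv_inv]
    have haba : a * b * a = δ * b⁻¹ := by
      calc a * b * a = (a * b * (a * b)) * b⁻¹ := by group
        _ = δ * b⁻¹ := by rw [hab]
    have hG : (a * a * b * a * a) * a * (a * a * b * a * a)⁻¹ = δ * δ * b⁻¹ := by
      calc (a * a * b * a * a) * a * (a * a * b * a * a)⁻¹
          = a * a * (b * a * b⁻¹) * a * (a ^ 3)⁻¹ := by group
        _ = a * a * (δ * (a * a * b)) * a := by rw [hbab, ha3, inv_one, mul_one]
        _ = δ * (a * a * (a * a * b)) * a := by rw [← mul_assoc (a * a), ← hd (a * a), mul_assoc δ]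
        _ = δ * (a ^ 3 * (a * b * a)) := by simp only [pow_succ, pow_zero, one_mul, mul_assoc]
        _ = δ * δ * b⁻¹ := by rw [haba, ha3, one_mul, mul_assoc]
    have hai' : InvBy σ a (rO 4 0) := by
      have := InvBy.shift hc hs h3.inv
      rw [h3.img, rO_inv (by omega) (by omega)] at this
      have e := oW_eq (u := [4, 5, 5, 0]) (w := [4, 0]) (by decide +kernel)
      simp only [oW, mul_one] at e
      exact (e ▸ this).inv
    have hσa : σ a = rO 4 5 := by rw [ha', map_inv, h3.img, rO_inv (by omega) (by omega)]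
    have hσb : σ b = rO 5 6 := by rw [hb', map_inv, h2.img, rO_inv (by omega) (by omega)]
    have hL := hai'.conj (a * a * b * a * a)
    have hj : σ (a * a * b * a * a) * rO 4 0 * (σ (a * a * b * a * a))⁻¹ = rO 6 0 := by
      rw [map_mul, map_mul, map_mul, map_mul, hσa, hσb]
      simp only [_root_.mul_inv_rev]
      rw [rO_inv (by omega) (by omega), rO_inv (by omega) (by omega)]
      have e := oW_eq
        (u := [4, 5, 4, 5, 5, 6, 4, 5, 4, 5, 4, 0, 5, 4, 5, 4, 6, 5, 5, 4, 5, 4]) (w := [6, 0])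
        (by decide +kernel)
      simpa [oW, mul_assoc] using e
    rw [hG, hj] at hL
    have hc3 : (δ * δ * b⁻¹) ^ 3 = 1 := by rw [← hG, conj_pow, ha3, mul_one, mul_inv_cancel]
    have hA2 : b⁻¹ = A2 := inv_inv A2
    rw [hA2] at hL hc3
    have := InvBy.unique hc hs hL h2.inv (by rw [map_mul, map_mul, hδ, one_mul, one_mul]) hc3 h2.cube
    exact mul_eq_right.mp this
  have sy : ∀ {i j}, ZRel R δ i j → ZRel R δ j i := fun h => h.symm hdd
  have z47 : ZRel R δ 4 7 := ZRel.step (by omega) (by omega) hR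
    (by rw [u67]; exact (Edge.toC hc hs (h1.move hc hs 4 (by decide +kernel)) (by decide +kernel)).inv) z46
  have z63 : ZRel R δ 6 3 := ZRel.step (by omega) (by omega) hR
    (by rw [e43]; exact Edge.toP hc (h4.move hc hs 6 (by decide +kernel)) (by decide +kernel)) (sy z46)
  have z73 : ZRel R δ 7 3 := ZRel.step (by omega) (by omega) hR
    (by rw [e43]; exact Edge.toP hc (h4.move hc hs 7 (by decide +kernel)) (by decide +kernel)) (sy z47)
  have z75 : ZRel R δ 7 5 := ZRel.step (by omega) (by omega) hR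
    (by rw [u45]; exact (Edge.toC hc hs (h3.move hc hs 7 (by decide +kernel)) (by decide +kernel)).inv) (sy z47)
  have z35 : ZRel R δ 3 5 := ZRel.step (by omega) (by omega) hR
    (by rw [e65]; exact Edge.toP hc (h2.move hc hs 3 (by decide +kernel)) (by decide +kernel)) (sy z63)
  have m60 := h6.move hc hs 0 (by decide +kernel)
  have z61 : ZRel R δ 6 1 := ZRel.step (by omega) (by omega) hR
    (by rw [e31]; exact Edge.toP hc (m60.move hc hs 6 (by decide +kernel)) (by decide +kernel)) z63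
  have z71 : ZRel R δ 7 1 := ZRel.step (by omega) (by omega) hR
    (by rw [e31]; exact Edge.toP hc (h6.move hc hs 7 (by decide +kernel)) (by decide +kernel)) z73
  have z72 : ZRel R δ 7 2 := ZRel.step (by omega) (by omega) hR
    (by rw [e32]; exact Edge.toP hc (h5.move hc hs 7 (by decide +kernel)) (by decide +kernel)) z73
  have z51 : ZRel R δ 5 1 := ZRel.step (by omega) (by omega) hR
    (by rw [e31]; exact Edge.toP hc h6 (by decide +kernel)) (sy z35)
  have z52 : ZRel R δ 5 2 := ZRel.step (by omega) (by omega) hR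
    (by rw [e32]; exact Edge.toP hc h5 (by decide +kernel)) (sy z35)
  have m11 := h1.move hc hs 1 (by decide +kernel)
  have z26 : ZRel R δ 2 6 := ZRel.step (by omega) (by omega) hR
    (by rw [e76]; exact Edge.toP hc (m11.move hc hs 2 (by decide +kernel)) (by decide +kernel)) (sy z72)
  have z70 : ZRel R δ 7 0 := ZRel.step (by omega) (by omega) hR
    (by rw [e20]; exact Edge.toP hc (h7.move hc hs 7 (by decide +kernel)) (by decide +kernel)) z72
  have m31 := h3.move hc hs 1 (by decide +kernel)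
  have z14 : ZRel R δ 1 4 := ZRel.step (by omega) (by omega) hR
    (by rw [e54]; exact Edge.toP hc m31 (by decide +kernel)) (sy z51)
  have z24 : ZRel R δ 2 4 := ZRel.step (by omega) (by omega) hR
    (by rw [e54]; exact Edge.toP hc (m31.move hc hs 2 (by decide +kernel)) (by decide +kernel)) (sy z52)
  have z50 : ZRel R δ 5 0 := ZRel.step (by omega) (by omega) hR
    (by rw [e20]; exact Edge.toP hc h7 (by decide +kernel)) z52
  have m71 := h7.move hc hs 1 (by decide +kernel)
  have z60 : ZRel R δ 6 0 := ZRel.step (by omega) (by omega) hR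
    (by rw [e20]; exact Edge.toP hc (m71.move hc hs 6 (by decide +kernel)) (by decide +kernel)) (sy z26)
  have z40 : ZRel R δ 4 0 := ZRel.step (by omega) (by omega) hR
    (by rw [e20]; exact Edge.toP hc (m71.move hc hs 4 (by decide +kernel)) (by decide +kernel)) (sy z24)
  have z03 : ZRel R δ 0 3 := ZRel.step (by omega) (by omega) hR
    (by rw [e43]; exact Edge.toP hc h4 (by decide +kernel)) (sy z40)
  have z01 : ZRel R δ 0 1 := ZRel.step (by omega) (by omega) hR
    (by rw [e31]; exact Edge.toP hc m60 (by decide +kernel)) z03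
  have z12 : ZRel R δ 1 2 := ZRel.step (by omega) (by omega) hR
    (by rw [u02]; exact (Edge.toC hc hs m71 (by decide +kernel)).inv) (sy z01)
  refine ⟨R, δ, hR, hδ, hdd, ?_, ?_⟩
  · have g : ∀ {p c : ℕ} {A : Γ}, A ^ 3 = 1 → (R p)⁻¹ * R c = A →
        ((R p)⁻¹ * R c) ^ 3 = 1 ∧ ((R c)⁻¹ * R p) ^ 3 = 1 := by
      intro p c A hA e
      refine ⟨e ▸ hA, ?_⟩
      rw [show (R c)⁻¹ * R p = ((R p)⁻¹ * R c)⁻¹ by group, e, inv_pow, hA, inv_one]
    have := g h1.cube e76; have := g h2.cube e65; have := g h3.cube e54; have := g h4.cube e43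
    have := g h5.cube e32; have := g h6.cube e31; have := g h7.cube e20
    intro a b ha hb h
    interval_cases a <;> interval_cases b <;> first | exact absurd h (by decide) | tauto
  · intro a b ha hb hne h
    interval_cases a <;> interval_cases b <;>
      first
        | exact absurd rfl hne
        | exact absurd h (by decide)
        | assumption
        | exact sy (by assumption)

/-- the wreath product carrying the involutions over the lifts -/
abbrev Wr (Γ : Type*) [Group Γ] :=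
  (Bool → Γ) ⋊[(mulAutArrow : Equiv.Perm Bool →* MulAut (Bool → Γ))] Equiv.Perm Bool

/-- the involution over the lift `R a` -/
def invol (R : ℕ → Γ) (a : ℕ) : Wr Γ :=
  ⟨fun s => if s then R a else (R a)⁻¹, Equiv.swap false true⟩

theorem flip_smul (f : Bool → Γ) (s : Bool) :
    ((mulAutArrow : Equiv.Perm Bool →* MulAut (Bool → Γ)) (Equiv.swap false true)) f s = f (!s) := by
  cases s <;> rfl

theorem invol_left (R : ℕ → Γ) (a : ℕ) (x : Wr Γ) (s : Bool) :
    (invol R a * x).left s = (if s then R a else (R a)⁻¹) * x.left (!s) := by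
  simp only [invol, SemidirectProduct.mul_left, Pi.mul_apply, flip_smul]

theorem invol_right (R : ℕ → Γ) (a : ℕ) (x : Wr Γ) :
    (invol R a * x).right = Equiv.swap false true * x.right := rfl

theorem invol_two (R : ℕ → Γ) (a b : ℕ) :
    invol R a * invol R b = (SemidirectProduct.inl fun s =>
      (if s then R a else (R a)⁻¹) * (if s then (R b)⁻¹ else R b) : Wr Γ) := by
  refine SemidirectProduct.ext ?_ ?_
  · funext s
    rw [invol_left, SemidirectProduct.left_inl]
    cases s <;> rfl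
  · rw [invol_right, SemidirectProduct.right_inl]
    exact Equiv.swap_mul_self false true

theorem invol_rels {R : ℕ → Γ} {δ : Γ} (hd : ∀ g, δ * g = g * δ) (hdd : δ * δ = 1)
    (hcube : ∀ a b, a < 8 → b < 8 → adjB a b = true → ((R a)⁻¹ * R b) ^ 3 = 1)
    (hZ : ∀ a b, a < 8 → b < 8 → a ≠ b → adjB a b = false → ZRel R δ a b) :
    DRels (invol R) (SemidirectProduct.inl fun _ => δ : Wr Γ) where
  central x := by
    refine SemidirectProduct.ext ?_ ?_
    · funext s
      show δ * x.left s = x.left s * δ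
      exact hd _
    · simp
  dsq := by
    rw [← map_mul, ← map_one SemidirectProduct.inl]
    exact congrArg _ (funext fun _ => hdd)
  sq a _ := by
    rw [invol_two, ← map_one SemidirectProduct.inl]
    refine congrArg _ (funext fun s => ?_)
    cases s <;> simp
  anti a b ha hb hne h := by
    have hp := hZ a b ha hb hne h
    unfold ZRel at hp
    have e1 : (R a)⁻¹ * R b = δ * ((R b)⁻¹ * R a) := by
      rw [← hp]; group
    have hq := (hZ a b ha hb hne h).symm hdd
    unfold ZRel at hq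
    have e2 : R a * (R b)⁻¹ = δ * (R b * (R a)⁻¹) := by
      calc R a * (R b)⁻¹ = R a * ((R b)⁻¹ * R a) * (R a)⁻¹ := by group
        _ = R a * (δ * ((R a)⁻¹ * R b)) * (R a)⁻¹ := by
            congr 2
            rw [← hq]; group
        _ = δ * (R b * (R a)⁻¹) := by rw [← mul_assoc (R a), ← hd (R a)]; group
    rw [invol_two, invol_two, ← map_mul]
    refine congrArg _ (funext fun s => ?_)
    cases s
    · simpa using e1
    · simpa using e2
  braid a b ha hb h := by
    have hp := hcube a b ha hb h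
    have e1 : (R a)⁻¹ * R b * (R a)⁻¹ = (R b)⁻¹ * R a * (R b)⁻¹ := by
      calc (R a)⁻¹ * R b * (R a)⁻¹
          = ((R a)⁻¹ * R b) ^ 3 * ((R b)⁻¹ * R a * (R b)⁻¹) := by rw [pow_succ, pow_two]; group
        _ = _ := by rw [hp, one_mul]
    have e2 : R a * (R b)⁻¹ * R a = R b * (R a)⁻¹ * R b := by
      calc R a * (R b)⁻¹ * R a = ((R a)⁻¹ * R b * (R a)⁻¹)⁻¹ := by group
        _ = ((R b)⁻¹ * R a * (R b)⁻¹)⁻¹ := by rw [e1]
        _ = R b * (R a)⁻¹ * R b := by group
    refine SemidirectProduct.ext ?_ ?_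
    · funext s
      rw [mul_assoc, mul_assoc, invol_left, invol_left, invol_left, invol_left]
      cases s <;> simp [invol, ← mul_assoc, e1, e2]
    · simp [invol]

theorem invol_pair (R : ℕ → Γ) {w : List ℕ} (hw : PairWord w) :
    (ev (invol R) w).right = 1 := by
  refine PairWord.rec' (P := fun w => (ev (invol R) w).right = 1) rfl ?_ hw
  intro a b w _ _ _ ih
  rw [ev_cons, ev_cons, invol_right, invol_right, ih]; simp

theorem invol_append (R : ℕ → Γ) {u w : List ℕ} (hu : PairWord u) :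
    (ev (invol R) (u ++ w)).left false = (ev (invol R) u).left false * (ev (invol R) w).left false := by
  rw [ev_append, SemidirectProduct.mul_left, invol_pair R hu]
  simp

theorem sigma_left {R : ℕ → Γ} (hR : ∀ a, a < 8 → σ (R a) = rO 7 a) {w : List ℕ}
    (hw : PairWord w) : σ ((ev (invol R) w).left false) = oW w := by
  refine PairWord.rec' (P := fun w => σ ((ev (invol R) w).left false) = oW w) (by simp [oW]) ?_ hw
  intro a b w ha hb _ ih
  rw [ev_cons, ev_cons, invol_left, invol_left]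
  simp only [Bool.false_eq_true, if_false, Bool.not_false, if_true, Bool.not_true, oW]
  rw [map_mul, map_mul, map_inv, hR a ha, hR b hb, ih, ← mul_assoc, rO_seven ha hb]

/-- the kernel of a stem extension is a quotient of the four-group -/
theorem exists_surjective (hσ : IsStemExtension σ) :
    ∃ π : Multiplicative (ZMod 2 × ZMod 2) →* σ.ker, Function.Surjective π := by
  obtain ⟨R, δ, hR, hδ, hdd, hcube, hZ⟩ := exists_generators hσ.2.1 hσ.1
  have hd := ker_comm hσ.2.1 hδ
  have hv := invol_rels hd hdd hcube hZ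
  let L : List ℕ → Γ := fun w => (ev (invol R) w).left false
  let S : Subgroup Γ :=
    { carrier := {x | ∃ w, PairWord w ∧ x = L w}
      one_mem' := ⟨[], .nil, rfl⟩
      mul_mem' := by
        rintro _ _ ⟨u, hu, rfl⟩ ⟨w, hw, rfl⟩
        exact ⟨u ++ w, hu.append hw, (invol_append R hu).symm⟩
      inv_mem' := by
        rintro _ ⟨u, hu, rfl⟩
        refine ⟨u.reverse, hu.reverse, ?_⟩
        show _ = (ev (invol R) u.reverse).left false
        rw [ev_reverse hv hu.lt, SemidirectProduct.inv_left, invol_pair R hu]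
        simp [L] }
  have hS : S = ⊤ := by
    refine CentralExt.eq_top_of_sup_ker hσ (top_le_iff.mp fun x _ => ?_)
    obtain ⟨w, hw, e⟩ := exists_pairWord (σ x).2
    have he : σ (L w) = σ x := by
      rw [sigma_left hR hw]; exact Subtype.ext ((oW_coe hw).trans e.symm)
    rw [show x = L w * ((L w)⁻¹ * x) by group]
    refine mul_mem (Subgroup.mem_sup_left (show L w ∈ S from ⟨w, hw, rfl⟩))
      (Subgroup.mem_sup_right ?_)
    rw [MonoidHom.mem_ker, map_mul, map_inv, he, inv_mul_cancel]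
  let ω := L longWord
  have hω : σ ω = 1 := by
    rw [sigma_left hR longWord_pair]
    exact Subtype.ext ((oW_coe longWord_pair).trans longWord_ev)
  have hωω : ω * ω = 1 := by
    show L longWord * L longWord = 1
    rw [← invol_append R longWord_pair, runP_sound hv longSq_check]
    simp
  let P : ZMod 2 → ZMod 2 → Γ := fun i j => δ ^ i.val * ω ^ j.val
  have hP : ∀ i j, σ (P i j) = 1 := fun i j => by simp [P, hδ, hω]
  have hwc := ker_comm hσ.2.1 hω
  have hmul : ∀ i j k l, P (i + k) (j + l) = P i j * P k l := by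
    intro i j k l
    have e2 : ∀ {x : Γ}, x * x = 1 → ∀ a b : ZMod 2, x ^ (a + b).val = x ^ a.val * x ^ b.val := by
      intro x hx a b
      rw [ZMod.val_add, ← pow_add]
      exact (pow_eq_pow_mod _ (by rw [pow_two, hx])).symm
    show δ ^ (i + k).val * ω ^ (j + l).val = δ ^ i.val * ω ^ j.val * (δ ^ k.val * ω ^ l.val)
    rw [e2 hdd, e2 hωω]
    exact (Commute.mul_mul_mul_comm (((show Commute ω δ from hwc δ).pow_pow _ _).symm) _ _)
  refine ⟨MonoidHom.mk' (fun x => ⟨P x.toAdd.1 x.toAdd.2, hP _ _⟩)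
    (fun x y => Subtype.ext (hmul _ _ _ _)), ?_⟩
  rintro ⟨z, hz⟩
  obtain ⟨w, hw, rfl⟩ : z ∈ S := hS ▸ Subgroup.mem_top z
  have he : ev tEl w = 1 := by
    rw [← oW_coe hw, ← sigma_left hR hw]
    exact congrArg Subtype.val hz
  have hsplit : ∀ i j : ZMod 2, L w = P i j → ∃ x : Multiplicative (ZMod 2 × ZMod 2),
      (⟨P x.toAdd.1 x.toAdd.2, hP _ _⟩ : σ.ker) = ⟨L w, hz⟩ :=
    fun i j e => ⟨Multiplicative.ofAdd (i, j), Subtype.ext e.symm⟩
  rcases kernel_values hv hw.lt he with e | e | e | e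
  · refine hsplit 0 0 ?_; simp [L, P, e]
  · refine hsplit 1 0 ?_; simp [L, P, e, ZMod.val_one]
  · refine hsplit 0 1 ?_; simp [L, P, ω, e, ZMod.val_one]
  · refine hsplit 1 1 ?_; simp [L, P, ω, e, ZMod.val_one, SemidirectProduct.mul_left]

end Stem

end Cfsg.Agent.OmegaEightCover
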